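/- Tower KP, slot TY: cycle patterns. -/
import Cfsg.Agent.H2.KpSpec

set_option autoImplicit false

namespace H80.KpTY

open Equiv H2.Kp Function

/-- `CL` with the empty pattern. -/
def CL0 (t : ℕ) : List (List ℕ) := if t = 0 then [[]] else CL t

theorem step : ∀ t ≤ 6, ∀ k ≤ t, 0 < k → (∀ l ∈ CL0 (t - k), l.headD 0 ≤ k → k :: l ∈ CL0 t) ∧
    ∀ l ∈ OP (t - k), l.headD 0 ≤ k → (l.length = 1 → l.headD 0 < k) →
      k :: l ∈ OP t ∧ k < t ∧ l.length ≠ 0 := by
  intro t h k hk h0
  interval_cases t <;> interval_cases k <;> decide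

theorem single : ∀ t ≤ 6, 0 < t → [t] ∈ OP t := by decide

theorem main {β : Type} [Fintype β] [DecidableEq β] (x : Perm β) (b0 : β) (t : ℕ) : t ≤ 6 →
    ∀ Ω : Finset β, (∀ b ∈ Ω, x b ∈ Ω) → t ≤ Ω.card → ∀ M, (∀ b ∈ Ω, minimalPeriod x b ≤ M) →
    ∃ a : ℕ → β, Set.InjOn a (Set.Iio t) ∧ (∀ i < t, a i ∈ Ω) ∧
      ((∃ l ∈ CL0 t, l.headD 0 ≤ M ∧ ∀ i < t, x (a i) = a (nx l i)) ∨
        ∃ l ∈ OP t, l.headD 0 ≤ M ∧ (l.length = 1 → l.headD 0 < M) ∧
          (∀ i, i + 1 < t → x (a i) = a (nx l i)) ∧ ∀ i < t, x (a (t - 1)) ≠ a i) := by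
  induction t using Nat.strong_induction_on with
  | _ t ih =>
  intro h6 Ω inv hc M hM
  rcases Nat.eq_zero_or_pos t with rfl | t0
  · exact ⟨fun _ => b0, fun i hi => absurd hi (Nat.not_lt_zero i), fun i hi => absurd hi (Nat.not_lt_zero i),
      Or.inl ⟨[], by decide, Nat.zero_le _, fun i hi => absurd hi (Nat.not_lt_zero i)⟩⟩
  obtain ⟨b, hb, mx⟩ := Ω.exists_max_image (minimalPeriod x) (Finset.card_pos.1 (by omega))
  have k0 : 0 < minimalPeriod x b := minimalPeriod_pos_of_mem_periodicPts (x.injective.mem_periodicPts b)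
  have ij := iterate_injOn_Iio_minimalPeriod (f := x) (x := b)
  have per : x^[minimalPeriod x b] b = b := iterate_minimalPeriod
  have md : ∀ j, x^[j % minimalPeriod x b] b = x^[j] b := fun j => iterate_mod_minimalPeriod_eq
  have kM := hM b hb
  generalize minimalPeriod x b = k at k0 ij per md mx kM
  have sc : ∀ j, x (x^[j] b) = x^[j + 1] b := fun j => (iterate_succ_apply' x j b).symm
  have io : ∀ j, x^[j] b ∈ Ω := fun j => by
    induction j with
    | zero => exact hb
    | succ j q => exact sc j ▸ inv _ q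
  by_cases tk : t < k
  · refine ⟨fun i => x^[i] b, ij.mono fun i hi => lt_trans hi tk, fun i _ => io i,
      Or.inr ⟨[t], single t h6 t0, tk.le.trans kM, fun _ => tk.trans_le kM, fun i hi => ?_,
        fun i hi e => ?_⟩⟩
    · rw [show nx [t] i = i + 1 from if_pos hi, sc]
    · rw [sc, Nat.sub_add_cancel t0] at e
      exact hi.ne' (ij tk (hi.trans tk) e)
  push Not at tk
  set C := (Finset.range k).image fun j => x^[j] b with hC
  have mC : ∀ j, x^[j] b ∈ C := fun j =>
    Finset.mem_image.2 ⟨j % k, Finset.mem_range.2 (Nat.mod_lt _ k0), md j⟩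
  have inv' : ∀ c ∈ Ω \ C, x c ∈ Ω \ C := fun c q => by
    obtain ⟨q1, q2⟩ := Finset.mem_sdiff.1 q
    refine Finset.mem_sdiff.2 ⟨inv c q1, fun q3 => q2 ?_⟩
    obtain ⟨j, -, e⟩ := Finset.mem_image.1 q3
    have : x (x^[j + k - 1] b) = x c := by
      rw [sc, Nat.sub_add_cancel (by omega), iterate_add_apply, per, e]
    exact x.injective this ▸ mC _
  obtain ⟨a, a1, a2, a3⟩ := ih (t - k) (by omega) (by omega) (Ω \ C) inv' (by
    have := Finset.le_card_sdiff C Ω
    have := Finset.card_image_le (s := Finset.range k) (f := fun j => x^[j] b)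
    rw [Finset.card_range, ← hC] at this
    omega) k fun c q => mx c (Finset.mem_sdiff.1 q).1
  have nC : ∀ i, k ≤ i → i < t → ∀ j, a (i - k) ≠ x^[j] b := fun i h1 h2 j e =>
    (Finset.mem_sdiff.1 (a2 (i - k) (by omega))).2 (e ▸ mC j)
  have pat : ∀ l i, (k ≤ i → x (a (i - k)) = a (nx l (i - k))) →
      x (if i < k then x^[i] b else a (i - k)) =
        if nx (k :: l) i < k then x^[nx (k :: l) i] b else a (nx (k :: l) i - k) := fun l i q => by
    have e : nx (k :: l) i = if i + 1 < k then i + 1 else if i + 1 = k then 0 else k + nx l (i - k) := rfl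
    generalize nx (k :: l) i = n at e
    by_cases h1 : i + 1 < k
    · rw [if_pos h1] at e
      rw [e, if_pos h1, if_pos (by omega), sc]
    by_cases h2 : i + 1 = k
    · rw [if_neg h1, if_pos h2] at e
      rw [e, if_pos k0, if_pos (by omega), sc, h2, per]; rfl
    rw [if_neg h1, if_neg h2] at e
    rw [e, if_neg (by omega), if_neg (by omega), q (by omega), Nat.add_sub_cancel_left]
  refine ⟨fun i => if i < k then x^[i] b else a (i - k), fun i hi j hj e => ?_, fun i hi => ?_, ?_⟩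
  · simp only [Set.mem_Iio] at hi hj e
    split_ifs at e with h1 h2 h2
    · exact ij h1 h2 e
    · exact absurd e.symm (nC j (by omega) hj i)
    · exact absurd e (nC i (by omega) hi j)
    · have := a1 (show i - k < t - k by omega) (show j - k < t - k by omega) e
      omega
  · by_cases h1 : i < k
    · simp only [if_pos h1]; exact io i
    · simp only [if_neg h1]; exact (Finset.mem_sdiff.1 (a2 _ (by omega))).1
  rcases a3 with ⟨l, l1, l2, l3⟩ | ⟨l, l1, l2, l3, l4, l5⟩
  · exact Or.inl ⟨k :: l, (step t h6 k tk k0).1 l l1 l2, kM, fun i hi =>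
      pat l i fun q => l3 _ (by omega)⟩
  obtain ⟨s1, s2, s3⟩ := (step t h6 k tk k0).2 l l1 l2 l3
  refine Or.inr ⟨k :: l, s1, kM, fun q => absurd (Nat.succ.inj q) s3, fun i hi =>
    pat l i fun q => l4 _ (by omega), fun i hi => ?_⟩
  simp only [if_neg (show ¬ t - 1 < k by omega), show t - 1 - k = t - k - 1 by omega]
  split_ifs with h1
  · exact fun e => (Finset.mem_sdiff.1 (inv' _ (a2 _ (by omega)))).2 (e ▸ mC i)
  · exact l5 _ (by omega)

theorem jobTY : TY := fun β _ _ x t h1 h6 hc => by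
  obtain ⟨b0⟩ := Fintype.card_pos_iff.1 (show 0 < Fintype.card β by omega)
  obtain ⟨a, a1, -, a3⟩ := main x b0 t h6 Finset.univ (fun _ _ => Finset.mem_univ _) hc
    (Finset.univ.sup (minimalPeriod x)) fun b hb => Finset.le_sup hb
  refine ⟨a, a1, a3.imp ?_ ?_⟩
  · rintro ⟨l, l1, -, l3⟩
    exact ⟨l, by rwa [CL0, if_neg (by omega)] at l1, l3⟩
  · rintro ⟨l, l1, -, -, l4⟩
    exact ⟨l, l1, l4⟩

end H80.KpTY
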