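import Cfsg.Agent.Base

/-! Root elements and permutation matrices in `SL(5, 2)` and their relations. -/

set_option autoImplicit false

namespace H80.LID

open Matrix

abbrev G5 := Matrix.SpecialLinearGroup (Fin 5) (ZMod 2)
abbrev W5 := Equiv.Perm (Fin 5)

/-- The matrix `1 + E_{ab}` (and `1` for `a = b`). -/
def xm (a b : Fin 5) : Matrix (Fin 5) (Fin 5) (ZMod 2) :=
  Matrix.of fun i j => if i = j ∨ (i = a ∧ j = b) then 1 else 0

theorem xm_eq : ∀ a b : Fin 5, a ≠ b → xm a b = Matrix.transvection a b 1 := by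
  intro a b h
  ext i j
  revert a b i j
  simp only [xm, Matrix.transvection, Matrix.of_apply, Matrix.add_apply, Matrix.one_apply,
    Matrix.single]
  decide

theorem xm_self (a : Fin 5) : xm a a = 1 := by
  ext i j
  simp only [xm, Matrix.of_apply, Matrix.one_apply]
  by_cases h : i = j
  · simp [h]
  · have : ¬ (i = a ∧ j = a) := fun h' => h (h'.1.trans h'.2.symm)
    simp [h, this]

theorem det_xm (a b : Fin 5) : (xm a b).det = 1 := by
  by_cases h : a = b
  · subst h; rw [xm_self, det_one]
  · rw [xm_eq a b h]; exact det_transvection_of_ne a b h 1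

/-- The root element `x a b = 1 + E_{ab}`. -/
def x (a b : Fin 5) : G5 := ⟨xm a b, det_xm a b⟩

theorem x_self (a : Fin 5) : x a a = 1 := Subtype.ext (xm_self a)

/-- Permutation matrices, `pm w` sends `e_j` to `e_{w j}`. -/
def pm : W5 →* G5 where
  toFun w := ⟨Matrix.permMatrixHom w, by
    simp only [permMatrixHom_apply, det_permutation]
    rcases Int.units_eq_one_or (Equiv.Perm.sign w⁻¹) with h | h <;> rw [h] <;> decide⟩
  map_one' := Subtype.ext (map_one _)
  map_mul' a b := Subtype.ext (map_mul _ a b)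

theorem pm_val (w : W5) : (pm w).1 = (w⁻¹).toPEquiv.toMatrix := rfl

theorem pm_apply (w : W5) (i j : Fin 5) : (pm w).1 i j = if i = w j then 1 else 0 := by
  rw [pm_val, PEquiv.toMatrix_apply]
  simp only [Equiv.toPEquiv_apply, Option.mem_def, Option.some.injEq]
  by_cases h : i = w j
  · simp [h]
  · have : ¬ (w⁻¹ i = j) := fun h' => h (by rw [← h']; simp)
    rw [if_neg h, if_neg this]

theorem pm_x (w : W5) (a b : Fin 5) : pm w * x a b = x (w a) (w b) * pm w := by
  apply Subtype.ext
  show (pm w).1 * xm a b = xm (w a) (w b) * (pm w).1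
  rw [pm_val, PEquiv.toMatrix_toPEquiv_mul, PEquiv.mul_toMatrix_toPEquiv]
  ext i j
  simp only [submatrix_apply, xm, of_apply, id]
  have e : (w⁻¹ : W5).symm j = w j := rfl
  rw [e]
  have h1 : w⁻¹ i = j ↔ i = w j := by
    constructor
    · rintro rfl; simp
    · rintro rfl; simp
  have h2 : w⁻¹ i = a ↔ i = w a := by
    constructor
    · rintro rfl; simp
    · rintro rfl; simp
  simp only [h1, h2, w.injective.eq_iff]

theorem xm_sq : ∀ a b : Fin 5, xm a b * xm a b = 1 := by
  decide +kernel

theorem x_sq (a b : Fin 5) : x a b * x a b = 1 := Subtype.ext (xm_sq a b)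

theorem xm_braid : ∀ a b : Fin 5, a ≠ b → xm a b * xm b a * xm a b =
    Matrix.of fun i j => if i = Equiv.swap a b j then 1 else 0 := by
  decide +kernel

theorem swap_eq (a b : Fin 5) (h : a ≠ b) : pm (Equiv.swap a b) = x a b * x b a * x a b := by
  apply Subtype.ext
  show _ = xm a b * xm b a * xm a b
  rw [xm_braid a b h]
  ext i j
  rw [pm_apply]; rfl

/-- The third root in the commutator of `x p q` and `x a b`. -/
def cr (p q a b : Fin 5) : Fin 5 × Fin 5 :=
  if a = q then (p, b) else if b = p then (a, q) else (a, a)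

theorem xm_comm : ∀ p q a b : Fin 5, p ≠ q → a ≠ b → (a, b) ≠ (q, p) →
    xm a b * xm p q = xm p q * xm a b * xm (cr p q a b).1 (cr p q a b).2 := by
  decide +kernel

theorem x_comm (p q a b : Fin 5) (h1 : p ≠ q) (h2 : a ≠ b) (h3 : (a, b) ≠ (q, p)) :
    x a b * x p q = x p q * x a b * x (cr p q a b).1 (cr p q a b).2 :=
  Subtype.ext (xm_comm p q a b h1 h2 h3)

/-- `SL(5, 2)` is generated by the root elements. -/
theorem gen_induction (P : G5 → Prop) (hx : ∀ a b, P (x a b))
    (hmul : ∀ g h, P g → P h → P (g * h)) (g : G5) : P g := by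
  have h1 : P 1 := x_self 0 ▸ hx 0 0
  refine Matrix.SpecialLinearGroup.diagonal_transvection_induction' P g ?_ ?_ hmul
  · intro i j hij c hc
    have : c = 1 := by revert c; decide
    subst this
    convert h1
    ext a b
    simp [Matrix.SpecialLinearGroup.diag2n_coe, diagonal_apply, one_apply]
  · intro i j hij a
    have : a = 0 ∨ a = 1 := by revert a; decide
    rcases this with rfl | rfl
    · rw [Matrix.SpecialLinearGroup.transvection_coeff_zero]; exact h1
    · convert hx i j
      exact Subtype.ext (xm_eq i j hij).symm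

/-- Unitriangular matrices. -/
def Uni (g : G5) : Prop := ∀ i j : Fin 5, j ≤ i → (g.1 - 1) i j = 0

theorem uni_pow (n : Matrix (Fin 5) (Fin 5) (ZMod 2)) (h : ∀ i j : Fin 5, j ≤ i → n i j = 0)
    (k : ℕ) : ∀ i j : Fin 5, (j : ℕ) < i + k → (n ^ k) i j = 0 := by
  induction k with
  | zero =>
    intro i j hij
    rw [pow_zero, one_apply_ne]
    rintro rfl; omega
  | succ k ih =>
    intro i j hij
    rw [pow_succ, mul_apply]
    refine Finset.sum_eq_zero fun l _ => ?_
    by_cases hl : (l : ℕ) < i + k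
    · rw [ih i l hl, zero_mul]
    · rw [h l j (by rw [Fin.le_def]; omega), mul_zero]

theorem Uni.pow_eight {g : G5} (h : Uni g) : g ^ 8 = 1 := by
  apply Subtype.ext
  show g.1 ^ 8 = 1
  have e : g.1 = 1 + (g.1 - 1) := by abel
  have h0 : (g.1 - 1) ^ 8 = 0 := by
    ext i j
    exact uni_pow _ h 8 i j (by omega)
  have := add_pow_char_pow_of_commute (R := Matrix (Fin 5) (Fin 5) (ZMod 2)) 2 3
    (Commute.one_left (g.1 - 1))
  rw [e]
  simpa [h0] using this

theorem Uni.mul {g h : G5} (hg : Uni g) (hh : Uni h) : Uni (g * h) := by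
  intro i j hij
  have e : (g * h).1 - 1 = (g.1 - 1) * (h.1 - 1) + (g.1 - 1) + (h.1 - 1) := by
    show g.1 * h.1 - 1 = _
    noncomm_ring
  rw [e, Matrix.add_apply, Matrix.add_apply, hg i j hij, hh i j hij, mul_apply, add_zero, add_zero]
  refine Finset.sum_eq_zero fun l _ => ?_
  by_cases hl : l ≤ i
  · rw [hg i l hl, zero_mul]
  · rw [hh l j (by omega), mul_zero]

theorem uni_x (a b : Fin 5) (h : a < b) : Uni (x a b) := by
  intro i j hij
  show xm a b i j - (1 : Matrix (Fin 5) (Fin 5) (ZMod 2)) i j = 0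
  have : ¬ (i = a ∧ j = b) := by rintro ⟨rfl, rfl⟩; omega
  simp [xm, one_apply, this]

/-- The upper unitriangular group, given by generators. -/
def U : Subgroup G5 := Subgroup.closure {g | ∃ a b, a < b ∧ g = x a b}

theorem U_pgroup : IsPGroup 2 U := by
  have key : ∀ g ∈ U, Uni g := by
    intro g hg
    refine Subgroup.closure_induction_left (p := fun g _ => Uni g) ?_ ?_ ?_ hg
    · intro i j _; simp
    · rintro _ ⟨a, b, hab, rfl⟩ y _ hy
      exact (uni_x a b hab).mul hy
    · rintro _ ⟨a, b, hab, rfl⟩ y _ hy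
      rw [inv_eq_of_mul_eq_one_right (x_sq a b)]
      exact (uni_x a b hab).mul hy
  rintro ⟨g, hg⟩
  exact ⟨3, Subtype.ext (key g hg).pow_eight⟩

/-- A fixed point of `U` other than a given one. -/
theorem exists_fixed {X : Type*} [Finite X] [MulAction G5 X] (h2 : 2 ∣ Nat.card X) (z : X)
    (hz : ∀ g : G5, g • z = z) : ∃ v : X, v ≠ z ∧ ∀ a b, a < b → x a b • v = v := by
  obtain ⟨b, hb, hne⟩ := U_pgroup.exists_fixed_point_of_prime_dvd_card_of_fixed_point X h2
    (a := z) (fun g => hz g)
  exact ⟨b, hne.symm, fun a c hac => hb ⟨x a c, Subgroup.subset_closure ⟨a, c, hac, rfl⟩⟩⟩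

end H80.LID
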