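import Cfsg.Agent.H80.LID1

/-! Highest weight vectors for `SL(5, 2)` over the field of two elements. -/

set_option autoImplicit false

namespace H80.LID

abbrev c (i : Fin 4) : Fin 5 := i.castSucc
abbrev d (i : Fin 4) : Fin 5 := i.succ
/-- The simple reflections. -/
def sw (i : Fin 4) : W5 := Equiv.swap (c i) (d i)

theorem c_lt_d (i : Fin 4) : c i < d i := Fin.castSucc_lt_succ
theorem sw_sw (i : Fin 4) : sw i * sw i = 1 := Equiv.swap_mul_self _ _
theorem sw_c (i : Fin 4) : sw i (c i) = d i := Equiv.swap_apply_left _ _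
theorem sw_d (i : Fin 4) : sw i (d i) = c i := Equiv.swap_apply_right _ _
theorem sw_lt : ∀ (i : Fin 4) (a b : Fin 5), a < b → (a, b) ≠ (c i, d i) → sw i a < sw i b := by
  decide
theorem sw_sw_apply (i : Fin 4) (a : Fin 5) : sw i (sw i a) = a := Equiv.swap_apply_self _ _ _

theorem s_eq (i : Fin 4) : pm (sw i) = x (c i) (d i) * x (d i) (c i) * x (c i) (d i) :=
  swap_eq _ _ (c_lt_d i).ne
theorem s_eq' (i : Fin 4) : pm (sw i) = x (d i) (c i) * x (c i) (d i) * x (d i) (c i) := by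
  rw [sw, Equiv.swap_comm]; exact swap_eq _ _ (c_lt_d i).ne'
theorem x_sq' (a b : Fin 5) (g : G5) : x a b * (x a b * g) = g := by
  rw [← mul_assoc, x_sq, one_mul]
theorem X_s (i : Fin 4) : x (c i) (d i) * pm (sw i) = x (d i) (c i) * x (c i) (d i) := by
  rw [s_eq]; simp only [mul_assoc, x_sq']
theorem s_X (i : Fin 4) : pm (sw i) * x (c i) (d i) = x (c i) (d i) * x (d i) (c i) := by
  rw [s_eq]; simp only [mul_assoc, x_sq, mul_one]
theorem s_Y (i : Fin 4) : pm (sw i) * x (d i) (c i) = x (d i) (c i) * x (c i) (d i) := by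
  rw [s_eq']; simp only [mul_assoc, x_sq, mul_one]
theorem x_pm (w : W5) (a b : Fin 5) : x a b * pm w = pm w * x (w⁻¹ a) (w⁻¹ b) := by
  rw [pm_x]; simp

/-- Lexicographic height of a permutation. -/
def ht (w : W5) : ℕ := 625 * w 0 + 125 * w 1 + 25 * w 2 + 5 * w 3 + w 4

theorem ht_inj {w w' : W5} (h : ht w = ht w') : w = w' := by
  have h0 := (w 0).2; have h1 := (w 1).2; have h2 := (w 2).2; have h3 := (w 3).2
  have h4 := (w 4).2
  have g0 := (w' 0).2; have g1 := (w' 1).2; have g2 := (w' 2).2; have g3 := (w' 3).2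
  have g4 := (w' 4).2
  unfold ht at h
  ext a
  fin_cases a <;> simp only [Fin.zero_eta, Fin.mk_one, Fin.reduceFinMk] <;> omega

theorem ht_lt (w : W5) (i : Fin 4) (h : w (c i) < w (d i)) : ht w < ht (w * sw i) := by
  rw [Fin.lt_def] at h
  have e : ∀ i : Fin 4, ∀ a : Fin 5, (w * sw i) a = w (sw i a) := fun _ _ => rfl
  unfold ht
  simp only [e]
  fin_cases i
  · have : sw 0 0 = 1 ∧ sw 0 1 = 0 ∧ sw 0 2 = 2 ∧ sw 0 3 = 3 ∧ sw 0 4 = 4 := by decide
    change (w 0 : ℕ) < w 1 at h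
    simp only [Fin.zero_eta, this]; omega
  · have : sw 1 0 = 0 ∧ sw 1 1 = 2 ∧ sw 1 2 = 1 ∧ sw 1 3 = 3 ∧ sw 1 4 = 4 := by decide
    change (w 1 : ℕ) < w 2 at h
    simp only [Fin.mk_one, this]; omega
  · have : sw 2 0 = 0 ∧ sw 2 1 = 1 ∧ sw 2 2 = 3 ∧ sw 2 3 = 2 ∧ sw 2 4 = 4 := by decide
    change (w 2 : ℕ) < w 3 at h
    simp only [Fin.reduceFinMk, this]; omega
  · have : sw 3 0 = 0 ∧ sw 3 1 = 1 ∧ sw 3 2 = 2 ∧ sw 3 3 = 4 ∧ sw 3 4 = 3 := by decide
    change (w 3 : ℕ) < w 4 at h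
    simp only [Fin.reduceFinMk, this]; omega

theorem ht_lt' (w : W5) (i : Fin 4) (h : w (d i) < w (c i)) : ht (w * sw i) < ht w := by
  have := ht_lt (w * sw i) i (by simpa [sw_c, sw_d] using h)
  rwa [mul_assoc, sw_sw, mul_one] at this

theorem ht_induction (P : W5 → Prop)
    (step : ∀ w, (∀ i, w (d i) < w (c i) → P (w * sw i)) → P w) (w : W5) : P w := by
  induction h : ht w using Nat.strong_induction_on generalizing w with
  | _ n ih => exact step w fun i hi => ih _ (h ▸ ht_lt' w i hi) _ rfl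

theorem asc_or_desc (w : W5) (i : Fin 4) : w (c i) < w (d i) ∨ w (d i) < w (c i) :=
  lt_or_gt_of_ne fun h => (c_lt_d i).ne (w.injective h)

theorem eq_one_of_asc (w : W5) (h : ∀ i, w (c i) < w (d i)) : w = 1 := by
  have h0 : (w 0 : ℕ) < w 1 := h 0
  have h1 : (w 1 : ℕ) < w 2 := h 1
  have h2 : (w 2 : ℕ) < w 3 := h 2
  have h3 : (w 3 : ℕ) < w 4 := h 3
  have h4 := (w 4).2
  apply ht_inj
  have : ht 1 = 194 := by decide
  rw [this]; unfold ht; omega

theorem perm_induction (P : W5 → Prop) (h1 : P 1)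
    (step : ∀ w i, w (d i) < w (c i) → P (w * sw i) → P w) (w : W5) : P w := by
  refine ht_induction P (fun w ih => ?_) w
  by_cases h : ∀ i, w (c i) < w (d i)
  · rw [eq_one_of_asc w h]; exact h1
  · push Not at h
    obtain ⟨i, hi⟩ := h
    have := (asc_or_desc w i).resolve_left (not_lt.mpr hi)
    exact step w i this (ih i this)

variable {V : Type*} [AddCommGroup V] [Module (ZMod 2) V] (ρ : Representation (ZMod 2) G5 V)

theorem act_mul (g h : G5) (v : V) : ρ (g * h) v = ρ g (ρ h v) := by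
  rw [map_mul]; rfl

theorem act_pm (w w' : W5) (v : V) : ρ (pm (w * w')) v = ρ (pm w) (ρ (pm w') v) := by
  rw [map_mul, act_mul]

theorem act_pm_one (v : V) : ρ (pm 1) v = v := by simp

theorem act_congr {g h g' h' : G5} (e : g * h = g' * h') (v : V) :
    ρ g (ρ h v) = ρ g' (ρ h' v) := by
  rw [← act_mul, e, act_mul]

/-- Vectors fixed by the upper unitriangular group. -/
def FixU (v : V) : Prop := ∀ a b, a < b → ρ (x a b) v = v

/-- The sum over the orbit of the `i`-th minimal parabolic subgroup. -/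
def e (i : Fin 4) (v : V) : V := v + ρ (pm (sw i)) v + ρ (x (d i) (c i)) v

variable {ρ}

theorem FixU.le {v : V} (h : FixU ρ v) {a b : Fin 5} (hab : a ≤ b) : ρ (x a b) v = v := by
  rcases hab.lt_or_eq with h' | rfl
  · exact h a b h'
  · rw [x_self]; simp

theorem FixU.add {v v' : V} (h : FixU ρ v) (h' : FixU ρ v') : FixU ρ (v + v') :=
  fun a b hab => by rw [map_add, h a b hab, h' a b hab]

theorem cr_le : ∀ (i : Fin 4) (a b : Fin 5), a < b → (a, b) ≠ (c i, d i) →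
    (cr (d i) (c i) a b).1 ≤ (cr (d i) (c i) a b).2 := by decide

theorem FixU.X_s {v : V} (h : FixU ρ v) (i : Fin 4) :
    ρ (x (c i) (d i)) (ρ (pm (sw i)) v) = ρ (x (d i) (c i)) v := by
  rw [act_congr ρ (LID.X_s i), h _ _ (c_lt_d i)]

theorem FixU.e {v : V} (h : FixU ρ v) (i : Fin 4) : FixU ρ (e ρ i v) := by
  intro a b hab
  unfold LID.e
  rw [map_add, map_add, h a b hab]
  by_cases h1 : (a, b) = (c i, d i)
  · obtain ⟨rfl, rfl⟩ := Prod.mk.inj h1
    rw [h.X_s, ← act_congr ρ (s_X i), h _ _ (c_lt_d i)]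
    abel
  · have e1 : (sw i)⁻¹ = sw i := inv_eq_of_mul_eq_one_right (sw_sw i)
    rw [act_congr ρ (x_pm (sw i) a b), e1, h _ _ (sw_lt i a b hab h1),
      act_congr ρ (x_comm (d i) (c i) a b (c_lt_d i).ne' hab.ne h1), h.le (cr_le i a b hab h1),
      act_mul, h a b hab]

theorem FixU.s_e {v : V} (h : FixU ρ v) (i : Fin 4) :
    ρ (pm (sw i)) (LID.e ρ i v) = LID.e ρ i v := by
  unfold LID.e
  rw [map_add, map_add, ← act_pm, sw_sw, act_pm_one, act_congr ρ (s_Y i), h _ _ (c_lt_d i)]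
  abel

variable (ρ) in
/-- Functionals invariant under the lower unitriangular group. -/
def FixL (l : V →ₗ[ZMod 2] ZMod 2) : Prop := ∀ a b, b < a → ∀ v, l (ρ (x a b) v) = l v

theorem f_asc {l : V →ₗ[ZMod 2] ZMod 2} (hl : FixL ρ l) (v : V) (w : W5) (i : Fin 4)
    (h : w (c i) < w (d i)) : l (ρ (pm w) (e ρ i v)) = l (ρ (pm (w * sw i)) v) := by
  unfold e
  rw [map_add, map_add, map_add, map_add, act_congr ρ (pm_x w _ _), hl _ _ h, act_pm,
    add_right_comm, CharTwo.add_self_eq_zero, zero_add]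

theorem f_desc {l : V →ₗ[ZMod 2] ZMod 2} (hl : FixL ρ l) {v : V} (hv : FixU ρ v) (w : W5)
    (i : Fin 4) (h : w (d i) < w (c i)) : l (ρ (pm w) (e ρ i v)) = l (ρ (pm w) v) := by
  unfold e
  rw [map_add, map_add, map_add, map_add, ← hv.X_s, act_congr ρ (pm_x w _ _), hl _ _ h,
    add_assoc, CharTwo.add_self_eq_zero, add_zero]

/-- The lower unitriangular group. -/
def L : Subgroup G5 := Subgroup.closure {g | ∃ a b, b < a ∧ g = x a b}

theorem x_mem_L {a b : Fin 5} (h : b ≤ a) : x a b ∈ L := by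
  rcases h.lt_or_eq with h' | rfl
  · exact Subgroup.subset_closure ⟨a, b, h', rfl⟩
  · rw [x_self]; exact one_mem _

theorem cr_ge : ∀ (i : Fin 4) (a b : Fin 5), b < a → (a, b) ≠ (d i, c i) →
    sw i b ≤ sw i a ∧ sw i (cr (d i) (c i) a b).2 ≤ sw i (cr (d i) (c i) a b).1 ∧
    (a, b) ≠ (c i, d i) ∧ ((cr (d i) (c i) a b).1 = (cr (d i) (c i) a b).2 ∨
      cr (d i) (c i) (cr (d i) (c i) a b).1 (cr (d i) (c i) a b).2 =
        ((cr (d i) (c i) a b).1, (cr (d i) (c i) a b).1) ∧ cr (d i) (c i) a b ≠ (c i, d i)) := by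
  decide

theorem Y_x (i : Fin 4) (a b : Fin 5) (hab : b < a) (h : (a, b) ≠ (d i, c i)) :
    ∃ u ∈ L, pm (sw i) * x (d i) (c i) * x a b = u * (pm (sw i) * x (d i) (c i)) := by
  obtain ⟨h1, h2, h3, -⟩ := cr_ge i a b hab h
  have := x_comm (d i) (c i) a b (c_lt_d i).ne' hab.ne' h3
  refine ⟨_, mul_mem (x_mem_L h1) (x_mem_L h2), ?_⟩
  have e1 : x (d i) (c i) * x a b = x a b * x (cr (d i) (c i) a b).1 (cr (d i) (c i) a b).2 *
      x (d i) (c i) := by
    have e2 := congrArg (fun g => x (d i) (c i) * g * x (d i) (c i)) this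
    simp only [mul_assoc, x_sq', x_sq, mul_one] at e2 ⊢
    exact e2
  rw [mul_assoc, e1]
  simp only [← mul_assoc, pm_x]
  simp only [mul_assoc, pm_x]

theorem s_L (i : Fin 4) (u : G5) (hu : u ∈ L) : ∃ u' ∈ L, pm (sw i) * u = u' * pm (sw i) ∨
    pm (sw i) * u = u' * (pm (sw i) * x (d i) (c i)) := by
  have step : ∀ (u : G5) (a b : Fin 5), b < a → (∃ u' ∈ L, pm (sw i) * u = u' * pm (sw i) ∨
      pm (sw i) * u = u' * (pm (sw i) * x (d i) (c i))) → ∃ u' ∈ L,
      pm (sw i) * (u * x a b) = u' * pm (sw i) ∨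
      pm (sw i) * (u * x a b) = u' * (pm (sw i) * x (d i) (c i)) := by
    rintro u a b hab ⟨u', hu', h⟩
    by_cases h1 : (a, b) = (d i, c i)
    · obtain ⟨rfl, rfl⟩ := Prod.mk.inj h1
      refine ⟨u', hu', ?_⟩
      rcases h with h | h
      · right; rw [← mul_assoc, h, mul_assoc]
      · left; rw [← mul_assoc, h]; simp only [mul_assoc, x_sq, mul_one]
    · rcases h with h | h
      · refine ⟨_, mul_mem hu' (x_mem_L (cr_ge i a b hab h1).1), Or.inl ?_⟩
        rw [← mul_assoc, h, mul_assoc, pm_x, mul_assoc]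
      · obtain ⟨u2, hu2, h2⟩ := Y_x i a b hab h1
        refine ⟨_, mul_mem hu' hu2, Or.inr ?_⟩
        rw [← mul_assoc, h, mul_assoc, h2, mul_assoc]
  refine Subgroup.closure_induction_right (p := fun u _ => ∃ u' ∈ L,
    pm (sw i) * u = u' * pm (sw i) ∨ pm (sw i) * u = u' * (pm (sw i) * x (d i) (c i))) ?_ ?_ ?_ hu
  · exact ⟨1, one_mem _, Or.inl (by simp)⟩
  · rintro u _ _ ⟨a, b, hab, rfl⟩ h
    exact step u a b hab h
  · rintro u _ _ ⟨a, b, hab, rfl⟩ h
    rw [inv_eq_of_mul_eq_one_right (x_sq a b)]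
    exact step u a b hab h

theorem FixL.mem {l : V →ₗ[ZMod 2] ZMod 2} (hl : FixL ρ l) (u : G5) (hu : u ∈ L) (v : V) :
    l (ρ u v) = l v := by
  refine Subgroup.closure_induction_left (p := fun u _ => l (ρ u v) = l v) ?_ ?_ ?_ hu
  · simp
  · rintro _ ⟨a, b, hab, rfl⟩ y _ hy
    rw [act_mul, hl a b hab, hy]
  · rintro _ ⟨a, b, hab, rfl⟩ y _ hy
    rw [inv_eq_of_mul_eq_one_right (x_sq a b), act_mul, hl a b hab, hy]

/-- The Bruhat decomposition on the orbit of a `U`-fixed vector. -/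
theorem bruhat {v : V} (hv : FixU ρ v) (g : G5) : ∃ u ∈ L, ∃ w : W5, ρ g v = ρ u (ρ (pm w) v) := by
  let D : V → Prop := fun z => ∃ u ∈ L, ∃ w : W5, z = ρ u (ρ (pm w) v)
  have hL : ∀ u ∈ L, ∀ z, D z → D (ρ u z) := by
    rintro u hu _ ⟨u', hu', w, rfl⟩
    exact ⟨u * u', mul_mem hu hu', w, (act_mul ρ _ _ _).symm⟩
  have hW0 : ∀ w, D (ρ (pm w) v) := fun w => ⟨1, one_mem _, w, by simp⟩
  have hs : ∀ i z, D z → D (ρ (pm (sw i)) z) := by
    rintro i _ ⟨u, hu, w, rfl⟩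
    obtain ⟨u', hu', h | h⟩ := s_L i u hu
    · rw [act_congr ρ h, ← act_pm]
      exact hL _ hu' _ (hW0 _)
    · rw [act_congr ρ h]
      refine hL _ hu' _ ?_
      rcases asc_or_desc w⁻¹ i with h1 | h1
      · rw [s_Y, act_mul, act_congr ρ (x_pm w _ _), hv _ _ h1]
        exact hL _ (x_mem_L (c_lt_d i).le) _ (hW0 _)
      · rw [act_mul, act_congr ρ (x_pm w _ _), hv _ _ h1, ← act_pm]
        exact hW0 _
  have hW : ∀ w z, D z → D (ρ (pm w) z) := by
    intro w
    refine perm_induction (fun w => ∀ z, D z → D (ρ (pm w) z)) ?_ ?_ w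
    · intro z hz; rwa [act_pm_one]
    · intro w i _ ih z hz
      have := ih _ (hs i z hz)
      rwa [← act_pm, mul_assoc, sw_sw, mul_one] at this
  have := gen_induction (fun g => ∀ z, D z → D (ρ g z)) ?_ ?_ g v (by simpa using hW0 1)
  · exact this
  · intro a b z hz
    rcases le_total b a with h | h
    · exact hL _ (x_mem_L h) _ hz
    · have e1 := pm_x (Equiv.swap a b) b a
      rw [Equiv.swap_apply_left, Equiv.swap_apply_right] at e1
      have e2 : z = ρ (pm (Equiv.swap a b)) (ρ (pm (Equiv.swap a b)) z) := by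
        rw [← act_pm, Equiv.swap_mul_self, act_pm_one]
      rw [e2, ← act_congr ρ e1]
      exact hW _ _ (hL _ (x_mem_L h) _ (hW _ _ hz))
  · intro g h hg hh z hz
    rw [act_mul]; exact hg _ (hh _ hz)

variable (ρ) in
/-- Irreducibility. -/
def Irr : Prop := ∀ S : Submodule (ZMod 2) V, (∀ g, ∀ v ∈ S, ρ g v ∈ S) → S = ⊥ ∨ S = ⊤

theorem eq_zero_of_f (hρ : Irr ρ) {l : V →ₗ[ZMod 2] ZMod 2} (hl : FixL ρ l) (hl0 : l ≠ 0) {v : V}
    (hv : FixU ρ v) (h : ∀ w, l (ρ (pm w) v) = 0) : v = 0 := by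
  let S : Submodule (ZMod 2) V := ⨅ g : G5, LinearMap.ker (l ∘ₗ ρ g)
  have mem : ∀ z, z ∈ S ↔ ∀ g, l (ρ g z) = 0 := fun z => by simp [S]
  rcases hρ S (fun g z hz => (mem _).2 fun g' => by rw [← act_mul]; exact (mem _).1 hz _)
    with h1 | h1
  · have : v ∈ S := (mem _).2 fun g => by
      obtain ⟨u, hu, w, e⟩ := bruhat hv g
      rw [e, hl.mem u hu, h]
    rwa [h1] at this
  · exfalso
    apply hl0
    ext z
    have := (mem z).1 (h1 ▸ Submodule.mem_top) 1
    simpa using this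

/-- A common eigenvector of the operators `e i`. -/
theorem exists_eig (hρ : Irr ρ) {l : V →ₗ[ZMod 2] ZMod 2} (hl : FixL ρ l) (hl0 : l ≠ 0) {v0 : V}
    (hv0 : FixU ρ v0) (h0 : v0 ≠ 0) :
    ∃ y, FixU ρ y ∧ y ≠ 0 ∧ ∀ i, e ρ i y = y ∨ e ρ i y = 0 := by
  classical
  let P : ℕ → Prop := fun N => ∃ v, FixU ρ v ∧ v ≠ 0 ∧ ∀ w, N ≤ ht w → l (ρ (pm w) v) = 0
  have hP : ∃ N, P N := by
    refine ⟨10000, v0, hv0, h0, fun w hw => ?_⟩
    have h0 := (w 0).2; have h1 := (w 1).2; have h2 := (w 2).2; have h3 := (w 3).2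
    have h4 := (w 4).2
    unfold ht at hw; omega
  obtain ⟨y, hy, hy0, hN⟩ := Nat.find_spec hP
  have hpos : Nat.find hP ≠ 0 := fun h =>
    hy0 (eq_zero_of_f hρ hl hl0 hy fun w => hN w (by omega))
  have hmin : ∀ v, FixU ρ v → (∀ w, Nat.find hP - 1 ≤ ht w → l (ρ (pm w) v) = 0) → v = 0 := by
    intro v hv h
    by_contra hv0
    exact Nat.find_min hP (m := Nat.find hP - 1) (by omega) ⟨v, hv, hv0, h⟩
  refine ⟨y, hy, hy0, fun i => ?_⟩
  have hasc : ∀ w, Nat.find hP - 1 ≤ ht w → w (c i) < w (d i) →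
      l (ρ (pm w) (e ρ i y)) = 0 := fun w hw h => by
    rw [f_asc hl y w i h]
    exact hN _ (by have := ht_lt w i h; omega)
  by_cases h : ∃ w0, ht w0 = Nat.find hP - 1 ∧ w0 (c i) < w0 (d i)
  · obtain ⟨w0, e0, h0⟩ := h
    refine Or.inr (hmin _ (hy.e i) fun w hw => ?_)
    rcases asc_or_desc w i with h1 | h1
    · exact hasc w hw h1
    · rw [f_desc hl hy w i h1]
      refine hN w ?_
      have : ht w ≠ ht w0 := fun h2 => by
        rw [ht_inj h2] at h1; exact lt_asymm h0 h1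
      omega
  · left
    have := hmin _ ((hy.e i).add hy) fun w hw => by
      rw [map_add, map_add]
      rcases asc_or_desc w i with h1 | h1
      · rw [hasc w hw h1, hN w, add_zero]
        have : ht w ≠ Nat.find hP - 1 := fun h2 => h ⟨w, h2, h1⟩
        omega
      · rw [f_desc hl hy w i h1, CharTwo.add_self_eq_zero]
    rw [add_eq_zero_iff_eq_neg, ZModModule.neg_eq_self] at this
    exact this

end H80.LID
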