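import Cfsg.Agent.H80.LID2

/-! The type of the highest weight vector of a ten dimensional irreducible module. -/

set_option autoImplicit false

namespace H80.LID

open Module

/-- `w` preserves the initial segment ending at `k`. -/
def Pres (k : Fin 4) (w : W5) : Prop := ∀ a, a ≤ c k ↔ w a ≤ c k

instance (k : Fin 4) (w : W5) : Decidable (Pres k w) := by unfold Pres; infer_instance

theorem pres_sw : ∀ i k : Fin 4, i ≠ k → Pres k (sw i) := by decide

theorem Pres.mul {k : Fin 4} {w w' : W5} (h : Pres k w) (h' : Pres k w') : Pres k (w * w') :=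
  fun a => (h' a).trans (h _)

theorem Pres.asc {k : Fin 4} {w : W5} (h : Pres k w) : w (c k) < w (d k) := by
  have h1 := (h (c k)).1 le_rfl
  have h2 : ¬ w (d k) ≤ c k := fun h' => absurd ((h _).2 h') (not_le.mpr (c_lt_d k))
  exact lt_of_le_of_lt h1 (not_le.mp h2)

variable {V : Type*} [AddCommGroup V] [Module (ZMod 2) V] {ρ : Representation (ZMod 2) G5 V}

theorem fix_of_pres {y : V} (J : Fin 4 → Prop) (hs : ∀ i, ¬ J i → ρ (pm (sw i)) y = y) (w : W5) :
    (∀ j, J j → Pres j w) → ρ (pm w) y = y := by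
  refine perm_induction (fun w => (∀ j, J j → Pres j w) → ρ (pm w) y = y) ?_ ?_ w
  · intro _; exact act_pm_one ρ y
  · intro w i hi ih h
    have hJ : ¬ J i := fun hj => lt_asymm hi (h i hj).asc
    have := ih fun j hj => (h j hj).mul (pres_sw i j fun e => hJ (e ▸ hj))
    rwa [act_pm, hs i hJ] at this

theorem pres_of_f {l : V →ₗ[ZMod 2] ZMod 2} (hl : FixL ρ l) {y : V} (hy : FixU ρ y)
    (J : Fin 4 → Prop) (hs : ∀ i, ¬ J i → ρ (pm (sw i)) y = y) (hJ : ∀ i, J i → e ρ i y = 0)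
    (w : W5) : l (ρ (pm w) y) ≠ 0 → ∀ j, J j → Pres j w := by
  refine perm_induction (fun w => l (ρ (pm w) y) ≠ 0 → ∀ j, J j → Pres j w) ?_ ?_ w
  · intro _ j _ a; rfl
  · intro w i hi ih h j hj
    have hi' : ¬ J i := fun hji => h (by rw [← f_desc hl hy w i hi, hJ i hji]; simp)
    have := (ih (by rwa [act_pm, hs i hi']) j hj).mul (pres_sw i j fun e => hi' (e ▸ hj))
    rwa [mul_assoc, sw_sw, mul_one] at this

/-- A five-cycle. -/
def t5 : W5 := sw 0 * sw 1 * sw 2 * sw 3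
/-- Doubling. -/
def m5 : W5 := Equiv.swap 1 2 * Equiv.swap 2 4 * Equiv.swap 4 3
/-- Fifteen affine permutations. -/
def r5 (p : Fin 5 × Fin 3) : W5 := t5 ^ (p.1 : ℕ) * m5 ^ (p.2 : ℕ)

theorem r5_sep : ∀ j k : Fin 4, j ≠ k → ∀ p q : Fin 5 × Fin 3, p ≠ q →
    ¬ (Pres j ((r5 p)⁻¹ * r5 q) ∧ Pres k ((r5 p)⁻¹ * r5 q)) := by
  decide +kernel

/-- Two indices in the type force dimension at least fifteen. -/
theorem fifteen_le [FiniteDimensional (ZMod 2) V] (hρ : Irr ρ) {l : V →ₗ[ZMod 2] ZMod 2}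
    (hl : FixL ρ l) (hl0 : l ≠ 0) {y : V} (hy : FixU ρ y) (hy0 : y ≠ 0)
    (J : Fin 4 → Prop) (hs : ∀ i, ¬ J i → ρ (pm (sw i)) y = y) (hJ : ∀ i, J i → e ρ i y = 0)
    {j k : Fin 4} (hjk : j ≠ k) (hj : J j) (hk : J k) : 15 ≤ finrank (ZMod 2) V := by
  have hly : l y = 1 := by
    have : ∃ w, l (ρ (pm w) y) ≠ 0 := by
      by_contra h
      push Not at h
      exact hy0 (eq_zero_of_f hρ hl hl0 hy h)
    obtain ⟨w, hw⟩ := this
    rw [fix_of_pres J hs w (pres_of_f hl hy J hs hJ w hw)] at hw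
    revert hw; generalize l y = a; revert a; decide
  have := LinearIndependent.of_pairwise_dual_eq_zero_one (R := ZMod 2)
    (fun p => ρ (pm (r5 p)) y) (fun p => l ∘ₗ ρ (pm (r5 p)⁻¹)) ?_ ?_
  · simpa using this.fintype_card_le_finrank
  · intro p q hpq
    by_contra h
    simp only [LinearMap.comp_apply, ← act_pm] at h
    have := pres_of_f hl hy J hs hJ _ h
    exact r5_sep j k hjk p q hpq ⟨this j hj, this k hk⟩
  · intro p
    simp only [LinearMap.comp_apply, ← act_pm, inv_mul_cancel, act_pm_one, hly]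

variable (ρ) in
/-- The span of the extremal vectors. -/
def Sp (y : V) : Submodule (ZMod 2) V := Submodule.span (ZMod 2) (Set.range fun w => ρ (pm w) y)

theorem mem_Sp (y : V) (w : W5) : ρ (pm w) y ∈ Sp ρ y := Submodule.subset_span ⟨w, rfl⟩

theorem self_mem_Sp (y : V) : y ∈ Sp ρ y := by simpa using mem_Sp (ρ := ρ) y 1

theorem Sp_inv_of {y : V} (g : G5) (h : ∀ w, ρ g (ρ (pm w) y) ∈ Sp ρ y) :
    ∀ z ∈ Sp ρ y, ρ g z ∈ Sp ρ y := by
  intro z hz
  have : Sp ρ y ≤ (Sp ρ y).comap (ρ g) := Submodule.span_le.2 (by rintro _ ⟨w, rfl⟩; exact h w)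
  exact this hz

theorem pm_Sp {y : V} (w : W5) : ∀ z ∈ Sp ρ y, ρ (pm w) z ∈ Sp ρ y :=
  Sp_inv_of _ fun w' => by rw [← act_pm]; exact mem_Sp y _

theorem pres_swap : ∀ (k : Fin 4) (a b : Fin 5), (a ≤ c k ↔ b ≤ c k) →
    Pres k (Equiv.swap a b) := by decide

theorem pres_swap2 : ∀ (k : Fin 4) (a b : Fin 5), b ≤ c k → ¬ a ≤ c k →
    Pres k (Equiv.swap (c k) b * Equiv.swap (d k) a) ∧
    (Equiv.swap (c k) b * Equiv.swap (d k) a) (c k) = b ∧
    (Equiv.swap (c k) b * Equiv.swap (d k) a) (d k) = a := by decide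

theorem Sp_inv {y : V} (hy : FixU ρ y) (k : Fin 4) (hs : ∀ i, i ≠ k → ρ (pm (sw i)) y = y)
    (hY : ρ (x (d k) (c k)) y ∈ Sp ρ y) (g : G5) : ∀ z ∈ Sp ρ y, ρ g z ∈ Sp ρ y := by
  have hfix : ∀ w, Pres k w → ρ (pm w) y = y := fun w hw =>
    fix_of_pres (· = k) hs w fun j hj => hj ▸ hw
  have hx : ∀ a b, ρ (x a b) y ∈ Sp ρ y := by
    intro a b
    rcases le_or_gt a b with h | h
    · rw [hy.le h]; exact self_mem_Sp y
    by_cases h1 : (a ≤ c k ↔ b ≤ c k)
    · have e1 := pm_x (Equiv.swap a b) b a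
      rw [Equiv.swap_apply_left, Equiv.swap_apply_right] at e1
      rw [← hfix _ (pres_swap k a b h1), ← act_congr ρ e1, hy b a h, hfix _ (pres_swap k a b h1)]
      exact self_mem_Sp y
    · have h2 : ¬ a ≤ c k := fun h' => h1 ⟨fun _ => h.le.trans h', fun _ => h'⟩
      have h3 : b ≤ c k := by tauto
      obtain ⟨p1, p2, p3⟩ := pres_swap2 k a b h3 h2
      have e1 := pm_x (Equiv.swap (c k) b * Equiv.swap (d k) a) (d k) (c k)
      rw [p2, p3] at e1
      have e2 := act_congr ρ e1 y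
      rw [hfix _ p1] at e2
      rw [← e2]
      exact pm_Sp _ _ hY
  refine gen_induction (fun g => ∀ z ∈ Sp ρ y, ρ g z ∈ Sp ρ y) ?_ ?_ g
  · intro a b
    refine Sp_inv_of _ fun w => ?_
    rw [act_congr ρ (x_pm w a b)]
    exact pm_Sp _ _ (hx _ _)
  · intro g h hg hh z hz
    rw [act_mul]; exact hg _ (hh _ hz)

/-- Minimal coset representatives. -/
def R (k : Fin 4) : Finset W5 := Finset.univ.filter fun r => ∀ i, i ≠ k → r (c i) < r (d i)

theorem R_card : (R 0).card = 5 ∧ (R 1).card = 10 ∧ (R 2).card = 10 ∧ (R 3).card = 5 := by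
  decide +kernel

theorem finrank_Sp {y : V} (k : Fin 4) (hs : ∀ i, i ≠ k → ρ (pm (sw i)) y = y) :
    finrank (ZMod 2) (Sp ρ y) ≤ (R k).card := by
  classical
  have h1 : ∀ w, ∃ r ∈ R k, ρ (pm w) y = ρ (pm r) y := by
    refine ht_induction _ fun w ih => ?_
    by_cases h : ∀ i, i ≠ k → w (c i) < w (d i)
    · exact ⟨w, by simpa [R] using h, rfl⟩
    · push Not at h
      obtain ⟨i, hik, hi⟩ := h
      obtain ⟨r, hr, e⟩ := ih i ((asc_or_desc w i).resolve_left (not_lt.mpr hi))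
      exact ⟨r, hr, by rw [← e, act_pm, hs i hik]⟩
  have h2 : (Set.range fun w => ρ (pm w) y) = ((R k).image fun w => ρ (pm w) y : Finset V) := by
    ext z
    simp only [Set.mem_range, Finset.coe_image, Set.mem_image, Finset.mem_coe]
    constructor
    · rintro ⟨w, rfl⟩
      obtain ⟨r, hr, e⟩ := h1 w
      exact ⟨r, hr, e.symm⟩
    · rintro ⟨w, -, rfl⟩; exact ⟨w, rfl⟩
  rw [Sp, h2]
  exact (finrank_span_finset_le_card _).trans Finset.card_image_le

variable (ρ) in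
/-- Highest weight vectors of fundamental type `k`. -/
structure Eig (y : V) (k : Fin 4) : Prop where
  fix : FixU ρ y
  s : ∀ i, i ≠ k → ρ (pm (sw i)) y = y
  rel : ρ (x (d k) (c k)) y = y + ρ (pm (sw k)) y

theorem Eig.inv {y : V} {k : Fin 4} (h : Eig ρ y k) (g : G5) : ∀ z ∈ Sp ρ y, ρ g z ∈ Sp ρ y :=
  Sp_inv h.fix k h.s (h.rel ▸ add_mem (self_mem_Sp y) (mem_Sp y _)) g

theorem exists_fixU [Finite V] (ρ : Representation (ZMod 2) G5 V)
    (h : 0 < finrank (ZMod 2) V) : ∃ v, v ≠ 0 ∧ FixU ρ v := by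
  let _ : MulAction G5 V := MulAction.compHom V (ρ : G5 →* Module.End (ZMod 2) V)
  refine exists_fixed (X := V) ?_ 0 fun g => map_zero (ρ g)
  rw [Module.natCard_eq_pow_finrank (K := ZMod 2), Nat.card_zmod]
  exact dvd_pow_self 2 h.ne'

theorem exists_fixL [Finite V] (ρ : Representation (ZMod 2) G5 V)
    (h : 0 < finrank (ZMod 2) V) : ∃ l : V →ₗ[ZMod 2] ZMod 2, l ≠ 0 ∧ FixL ρ l := by
  have : Finite (Module.Dual (ZMod 2) V) := Module.finite_of_finite (ZMod 2)
  obtain ⟨l, hl0, hl⟩ := exists_fixU ρ.dual (by rwa [Subspace.dual_finrank_eq])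
  have hl' : ∀ a b, a < b → ∀ v, l (ρ (x a b) v) = l v := fun a b hab v => by
    have := congrArg (fun f : Module.Dual (ZMod 2) V => f v) (hl a b hab)
    simp only [Representation.dual_apply, inv_eq_of_mul_eq_one_right (x_sq a b)] at this
    exact this
  refine ⟨l ∘ₗ ρ (pm Fin.revPerm), fun h0 => hl0 ?_, fun a b hab v => ?_⟩
  · ext v
    have := congrArg (fun f : V →ₗ[ZMod 2] ZMod 2 => f (ρ (pm Fin.revPerm⁻¹) v)) h0
    simp only [LinearMap.comp_apply, ← act_pm, mul_inv_cancel, act_pm_one] at this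
    exact this
  · simp only [LinearMap.comp_apply]
    rw [act_congr ρ (pm_x _ a b), hl' _ _ (by simpa using hab)]

/-- A ten dimensional irreducible module has a highest weight vector of type `1` or `2`. -/
theorem exists_Eig [Finite V] (hρ : Irr ρ) (h10 : finrank (ZMod 2) V = 10) :
    ∃ y, y ≠ 0 ∧ (Eig ρ y 1 ∨ Eig ρ y 2) := by
  obtain ⟨v0, h0, hv0⟩ := exists_fixU ρ (by omega)
  obtain ⟨l, hl0, hl⟩ := exists_fixL ρ (by omega)
  obtain ⟨y, hy, hy0, he⟩ := exists_eig hρ hl hl0 hv0 h0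
  have hs : ∀ i, ¬ e ρ i y = 0 → ρ (pm (sw i)) y = y := fun i hi => by
    have := hy.s_e i
    rwa [(he i).resolve_right hi] at this
  have huniq : ∀ j k, e ρ j y = 0 → e ρ k y = 0 → j = k := fun j k hj hk => by
    by_contra hjk
    have := fifteen_le hρ hl hl0 hy hy0 (fun i => e ρ i y = 0) hs (fun _ h => h) hjk hj hk
    omega
  have htop : ∀ k, (∀ i, i ≠ k → ρ (pm (sw i)) y = y) → ρ (x (d k) (c k)) y ∈ Sp ρ y →
      10 ≤ (R k).card := fun k h1 h2 => by
    rcases hρ _ (Sp_inv hy k h1 h2) with h | h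
    · exact absurd (by simpa [h] using self_mem_Sp (ρ := ρ) y) hy0
    · have := finrank_Sp k h1
      rwa [h, finrank_top, h10] at this
  refine ⟨y, hy0, ?_⟩
  by_cases h : ∃ k, e ρ k y = 0
  · obtain ⟨k, hk⟩ := h
    have hE : Eig ρ y k := ⟨hy, fun i hi => hs i fun h => hi (huniq i k h hk), by
      unfold e at hk
      rwa [add_eq_zero_iff_eq_neg, ZModModule.neg_eq_self, eq_comm] at hk⟩
    have := htop k hE.s (hE.rel ▸ add_mem (self_mem_Sp y) (mem_Sp y _))
    obtain ⟨c0, -, -, c3⟩ := R_card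
    fin_cases k
    · exact absurd this (by simp [c0])
    · exact Or.inl hE
    · exact Or.inr hE
    · exact absurd this (by simp only [Fin.reduceFinMk, c3]; omega)
  · push Not at h
    have := htop 0 (fun i _ => hs i (h i)) (by
      have e1 := act_congr ρ (pm_x (sw 0) (c 0) (d 0)) y
      rw [sw_c, sw_d, hy _ _ (c_lt_d 0), hs 0 (h 0)] at e1
      rw [← e1]
      exact self_mem_Sp y)
    rw [R_card.1] at this
    omega

/-- Two highest weight vectors of the same type give an intertwining map. -/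
theorem exists_map [Finite V] {V' : Type*} [AddCommGroup V'] [Module (ZMod 2) V']
    {ρ' : Representation (ZMod 2) G5 V'} (hρ : Irr ρ) {k : Fin 4}
    (hk : finrank (ZMod 2) V = (R k).card) {y : V} {y' : V'} (hy0 : y ≠ 0) (hy0' : y' ≠ 0)
    (h : Eig ρ y k) (h' : Eig ρ' y' k) : ∃ φ : V →ₗ[ZMod 2] V', Function.Injective φ ∧
      (∀ g v, φ (ρ g v) = ρ' g (φ v)) ∧ φ y = y' ∧ LinearMap.range φ = Sp ρ' y' := by
  let τ := ρ.prod ρ'
  have hτ : ∀ g v v', τ g (v, v') = (ρ g v, ρ' g v') := fun _ _ _ => rfl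
  have hE : Eig τ (y, y') k :=
    ⟨fun a b hab => by rw [hτ, h.fix a b hab, h'.fix a b hab],
     fun i hi => by rw [hτ, h.s i hi, h'.s i hi], by rw [hτ, hτ, h.rel, h'.rel]; rfl⟩
  let S := Sp τ (y, y')
  have : FiniteDimensional (ZMod 2) S :=
    FiniteDimensional.span_of_finite _ (Set.finite_range _)
  let p : S →ₗ[ZMod 2] V := LinearMap.fst _ _ _ ∘ₗ S.subtype
  have hsurj : Function.Surjective p := by
    rw [← LinearMap.range_eq_top]
    refine (hρ _ ?_).resolve_left fun h0 => hy0 ?_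
    · rintro g _ ⟨z, rfl⟩
      exact ⟨⟨τ g z, hE.inv g _ z.2⟩, rfl⟩
    · rw [← Submodule.mem_bot (ZMod 2), ← h0]
      exact ⟨⟨_, self_mem_Sp _⟩, rfl⟩
  have hrk : finrank (ZMod 2) S = finrank (ZMod 2) V :=
    le_antisymm (hk ▸ finrank_Sp k hE.s) (LinearMap.finrank_le_finrank_of_surjective hsurj)
  let E : S ≃ₗ[ZMod 2] V := LinearEquiv.ofBijective p
    ⟨(LinearMap.injective_iff_surjective_of_finrank_eq_finrank hrk).2 hsurj, hsurj⟩
  let φ : V →ₗ[ZMod 2] V' := LinearMap.snd _ _ _ ∘ₗ S.subtype ∘ₗ E.symm.toLinearMap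
  have hφ : ∀ z : S, φ z.1.1 = z.1.2 := fun z => by
    have : E.symm z.1.1 = z := E.symm_apply_apply z
    simp only [φ, LinearMap.comp_apply, LinearEquiv.coe_coe, this]
    rfl
  have heq : ∀ g v, φ (ρ g v) = ρ' g (φ v) := fun g v => by
    obtain ⟨z, rfl⟩ := hsurj v
    have h1 := hφ ⟨τ g z, hE.inv g _ z.2⟩
    have h2 := hφ z
    change φ (ρ g z.1.1) = ρ' g (φ z.1.1)
    rw [h2]; exact h1
  have hyy : φ y = y' := hφ ⟨_, self_mem_Sp _⟩
  refine ⟨φ, ?_, heq, hyy, ?_⟩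
  · rw [← LinearMap.ker_eq_bot]
    refine (hρ _ fun g v hv => ?_).resolve_right fun h0 => hy0' ?_
    · rw [LinearMap.mem_ker] at hv ⊢
      rw [heq, hv, map_zero]
    · rw [← hyy, ← LinearMap.mem_ker, h0]; trivial
  · have hV : Sp ρ y = ⊤ :=
      (hρ _ h.inv).resolve_left fun h0 => hy0 (by simpa [h0] using self_mem_Sp (ρ := ρ) y)
    rw [LinearMap.range_eq_map, ← hV, Sp, Sp, Submodule.map_span, ← Set.range_comp]
    congr 2
    ext w
    simp [heq, hyy]

end H80.LID
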