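import Cfsg.Agent.H80.LID3

/-! A ten dimensional irreducible `F_2 SL(5, 2)`-module is the exterior square of the natural
module or of its dual. -/

set_option autoImplicit false

namespace H80.LID

open Module Matrix

abbrev M5 := Matrix (Fin 5) (Fin 5) (ZMod 2)

/-- Alternating matrices. -/
def Alt : Submodule (ZMod 2) M5 where
  carrier := {a | aᵀ = a ∧ ∀ i, a i i = 0}
  add_mem' := by
    rintro a b ⟨h1, h2⟩ ⟨h3, h4⟩
    exact ⟨by rw [transpose_add, h1, h3], fun i => by simp [h2 i, h4 i]⟩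
  zero_mem' := ⟨transpose_zero, fun _ => rfl⟩
  smul_mem' := by
    rintro r a ⟨h1, h2⟩
    exact ⟨by rw [transpose_smul, h1], fun i => by simp [h2 i]⟩

theorem mem_Alt (a : M5) : a ∈ Alt ↔ aᵀ = a ∧ ∀ i, a i i = 0 := Iff.rfl

/-- The action `a ↦ g a gᵀ`. -/
def ρA : Representation (ZMod 2) G5 M5 where
  toFun g := (LinearMap.mulRight (ZMod 2) g.1ᵀ) ∘ₗ (LinearMap.mulLeft (ZMod 2) g.1)
  map_one' := by ext1 a; simp
  map_mul' g h := by ext1 a; simp [Matrix.mul_assoc]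

theorem ρA_apply (g : G5) (a : M5) : ρA g a = g.1 * a * g.1ᵀ := rfl

/-- The inverse transpose automorphism. -/
def θ : G5 →* G5 where
  toFun g := ⟨(g⁻¹).1ᵀ, by rw [det_transpose]; exact (g⁻¹).2⟩
  map_one' := Subtype.ext (by simp)
  map_mul' g h := Subtype.ext (by
    show ((g * h)⁻¹).1ᵀ = (g⁻¹).1ᵀ * (h⁻¹).1ᵀ
    rw [_root_.mul_inv_rev, ← transpose_mul]
    rfl)

theorem θ_val (g : G5) : (θ g).1 = (g⁻¹).1ᵀ := rfl

theorem θ_θ (g : G5) : θ (θ g) = g := by
  apply Subtype.ext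
  rw [θ_val, ← map_inv, θ_val, inv_inv, transpose_transpose]

theorem θ_pm (w : W5) : θ (pm w) = pm w := by
  apply Subtype.ext
  rw [θ_val, ← map_inv]
  ext i j
  rw [transpose_apply, pm_apply, pm_apply]
  congr 1
  exact propext ⟨by rintro rfl; simp, by rintro rfl; simp⟩

theorem θ_x (a b : Fin 5) : θ (x a b) = x b a := by
  apply Subtype.ext
  rw [θ_val, inv_eq_of_mul_eq_one_right (x_sq a b)]
  ext i j
  simp only [transpose_apply, x, xm, of_apply, eq_comm (a := j) (b := i), and_comm]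

/-- The twisted action. -/
def ρB : Representation (ZMod 2) G5 M5 := ρA.comp θ

theorem ρB_apply (g : G5) (a : M5) : ρB g a = (g⁻¹).1ᵀ * a * (g⁻¹).1 := by
  show ρA (θ g) a = _
  rw [ρA_apply, θ_val, transpose_transpose]

/-- The basic alternating matrices. -/
def al (a b : Fin 5) : M5 := Matrix.of fun i j => if (i = a ∧ j = b) ∨ (i = b ∧ j = a) then 1 else 0

theorem ρA_pm (w : W5) (a b : Fin 5) : ρA (pm w) (al a b) = al (w a) (w b) := by
  have e : (pm w).1ᵀ = w.toPEquiv.toMatrix := by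
    rw [pm_val, ← PEquiv.toMatrix_symm, ← Equiv.toPEquiv_symm]; rfl
  rw [ρA_apply, e, pm_val, PEquiv.toMatrix_toPEquiv_mul, PEquiv.mul_toMatrix_toPEquiv]
  ext i j
  have h : ∀ i a : Fin 5, w⁻¹ i = a ↔ i = w a := fun i a =>
    ⟨by rintro rfl; simp, by rintro rfl; simp⟩
  have h' : ∀ i a : Fin 5, w.symm i = a ↔ i = w a := h
  simp only [submatrix_apply, al, of_apply, id, h, h']

theorem al_mem (a b : Fin 5) (h : a ≠ b) : al a b ∈ Alt := by
  refine ⟨?_, fun i => ?_⟩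
  · ext i j
    simp only [transpose_apply, al, of_apply]
    congr 1
    exact propext (by tauto)
  · simp only [al, of_apply]
    rw [if_neg]
    rintro (⟨h1, h2⟩ | ⟨h1, h2⟩)
    · exact h (h1.symm.trans h2)
    · exact h (h2.symm.trans h1)

theorem two_trans : ∀ p q a b : Fin 5, p ≠ q → a ≠ b →
    (Equiv.swap p a * Equiv.swap q (Equiv.swap p a b)) p = a ∧
    (Equiv.swap p a * Equiv.swap q (Equiv.swap p a b)) q = b := by decide +kernel

theorem Sp_eq {ρ : Representation (ZMod 2) G5 M5} (hρ : ∀ w, ρ (pm w) = ρA (pm w)) {p q : Fin 5}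
    (hpq : p ≠ q) : Sp ρ (al p q) = Alt := by
  apply le_antisymm
  · refine Submodule.span_le.2 ?_
    rintro _ ⟨w, rfl⟩
    simp only [hρ, ρA_pm]
    exact al_mem _ _ fun h => hpq (w.injective h)
  · rintro a ⟨h1, h2⟩
    have hs : ∀ i j, a j i = a i j := fun i j => congrFun (congrFun h1 i) j
    have hm : ∀ i j, i ≠ j → al i j ∈ Sp ρ (al p q) := fun i j hij => by
      have := mem_Sp (ρ := ρ) (al p q) (Equiv.swap p i * Equiv.swap q (Equiv.swap p i j))
      rwa [hρ, ρA_pm, (two_trans p q i j hpq hij).1, (two_trans p q i j hpq hij).2] at this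
    have e : a = a 0 1 • al 0 1 + a 0 2 • al 0 2 + a 0 3 • al 0 3 + a 0 4 • al 0 4 +
        a 1 2 • al 1 2 + a 1 3 • al 1 3 + a 1 4 • al 1 4 + a 2 3 • al 2 3 + a 2 4 • al 2 4 +
        a 3 4 • al 3 4 := by
      ext i j
      fin_cases i <;> fin_cases j <;> simp [al, h2] <;> exact hs _ _
    rw [e]
    refine add_mem (add_mem (add_mem (add_mem (add_mem (add_mem (add_mem (add_mem (add_mem
      ?_ ?_) ?_) ?_) ?_) ?_) ?_) ?_) ?_) ?_ <;> exact Submodule.smul_mem _ _ (hm _ _ (by decide))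

theorem eigA : Eig ρA (al 0 1) 1 := by
  refine ⟨?_, ?_, ?_⟩
  · have : ∀ a b : Fin 5, a < b → xm a b * al 0 1 * (xm a b)ᵀ = al 0 1 := by decide +kernel
    exact this
  · simp only [ρA_pm]; decide +kernel
  · rw [ρA_pm]
    have : xm 2 1 * al 0 1 * (xm 2 1)ᵀ = al 0 1 + al (sw 1 0) (sw 1 1) := by decide +kernel
    exact this

theorem ρB_pm (w : W5) : ρB (pm w) = ρA (pm w) := by
  show ρA (θ (pm w)) = _
  rw [θ_pm]

theorem ρB_x (a b : Fin 5) : ρB (x a b) = ρA (x b a) := by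
  show ρA (θ (x a b)) = _
  rw [θ_x]

theorem eigB : Eig ρB (al 3 4) 2 := by
  refine ⟨?_, ?_, ?_⟩
  · have : ∀ a b : Fin 5, a < b → xm b a * al 3 4 * (xm b a)ᵀ = al 3 4 := by decide +kernel
    intro a b h
    rw [ρB_x]
    exact this a b h
  · simp only [ρB_pm, ρA_pm]; decide +kernel
  · rw [ρB_pm, ρA_pm, ρB_x]
    have : xm 2 3 * al 3 4 * (xm 2 3)ᵀ = al 3 4 + al (sw 2 3) (sw 2 4) := by decide +kernel
    exact this

/-- Identification of the ten dimensional irreducible modules. -/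
theorem lambda2 {V : Type*} [AddCommGroup V] [Module (ZMod 2) V]
    (ρ : Representation (ZMod 2) G5 V) (hc : Nat.card V = 2 ^ 10) (hρ : Irr ρ) :
    ∃ φ : V →ₗ[ZMod 2] M5, Function.Injective φ ∧ LinearMap.range φ = Alt ∧
      ((∀ g v, φ (ρ g v) = g.1 * φ v * g.1ᵀ) ∨
        ∀ g v, φ (ρ g v) = (g⁻¹).1ᵀ * φ v * (g⁻¹).1) := by
  have : Finite V := Nat.finite_of_card_ne_zero (by rw [hc]; norm_num)
  have h10 : finrank (ZMod 2) V = 10 := by
    rw [Module.natCard_eq_pow_finrank (K := ZMod 2), Nat.card_zmod] at hc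
    exact Nat.pow_right_injective le_rfl hc
  obtain ⟨y, hy0, h | h⟩ := exists_Eig hρ h10
  · obtain ⟨φ, h1, h2, -, h4⟩ := exists_map hρ (h10.trans R_card.2.1.symm) hy0
      (by decide +kernel) h eigA
    exact ⟨φ, h1, h4.trans (Sp_eq (fun _ => rfl) (by decide)), Or.inl h2⟩
  · obtain ⟨φ, h1, h2, -, h4⟩ := exists_map hρ (h10.trans R_card.2.2.1.symm) hy0
      (by decide +kernel) h eigB
    exact ⟨φ, h1, h4.trans (Sp_eq ρB_pm (by decide)),
      Or.inr fun g v => (h2 g v).trans (ρB_apply _ _)⟩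

/-- The same for actions by linear equivalences. -/
theorem lambda2' {V : Type*} [AddCommGroup V] [Module (ZMod 2) V]
    (ρ : G5 →* (V ≃ₗ[ZMod 2] V)) (hc : Nat.card V = 2 ^ 10)
    (hρ : ∀ S : Submodule (ZMod 2) V, (∀ g, ∀ v ∈ S, ρ g v ∈ S) → S = ⊥ ∨ S = ⊤) :
    ∃ φ : V →ₗ[ZMod 2] M5, Function.Injective φ ∧ LinearMap.range φ = Alt ∧
      ((∀ g v, φ (ρ g v) = g.1 * φ v * g.1ᵀ) ∨
        ∀ g v, φ (ρ g v) = (g⁻¹).1ᵀ * φ v * (g⁻¹).1) :=
  lambda2 (LinearEquiv.automorphismGroup.toLinearMapMonoidHom.comp ρ) hc hρ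

end H80.LID
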